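import Mathlib
import Cfsg.Agent.H997.Rg.Lin
import Cfsg.Agent.S0044

/-!
# Groups of odd order acting fixed point freely (helper308; S3691, case F-D+2, q odd)

`exists_dvd` : `z` generates a normal subgroup, `ρ` fixed point free: `|G : C_G(z)|` and the order of `q` modulo `|z|`
divide a number `D ≤ dim`.
-/

set_option autoImplicit false

open Subgroup Cfsg

namespace Cfsg.Agent.H308.D2

open Cfsg.Agent.H997.Rg

section eig

variable {F W G : Type*} [Field F] [AddCommGroup W] [Module F W] [Group G] {p : ℕ} {ρ : G →* Module.End F W}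

theorem exists_dvd [Finite F] [CharP F p] [FiniteDimensional F W] [Nontrivial W] [Finite G] (hp : p.Prime)
    (h : Fpf p ρ) {z : G} {n : ℕ} (hz : orderOf z = n) (hpn : ¬ p ∣ n) (hconj : ∀ g : G, ∃ k : ℕ, g * z * g⁻¹ = z ^ k) :
    ∃ D : ℕ, 0 < D ∧ D ≤ Module.finrank F W ∧ (centralizer ({z} : Set G)).index ∣ D ∧
      orderOf ((Nat.card F : ℕ) : ZMod n) ∣ D := by
  classical
  have := Fact.mk hp
  have hn0 : 0 < n := by rw [← hz]; exact orderOf_pos z
  have : NeZero n := ⟨hn0.ne'⟩
  have hzn : z ^ n = 1 := by rw [← hz]; exact pow_orderOf_eq_one z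
  set E := AlgebraicClosure F with hE
  set m := minpoly F (ρ z) with hm
  have hint : IsIntegral F (ρ z) := Algebra.IsIntegral.isIntegral _
  have hdeg : m.degree ≠ 0 := (minpoly.degree_pos hint).ne'
  obtain ⟨ζ, hζ⟩ := IsAlgClosed.exists_aeval_eq_zero E m hdeg
  -- all roots have order n
  have hord : ∀ ξ : E, Polynomial.aeval ξ m = 0 → orderOf ξ = n := by
    intro ξ hξ
    refine orderOf_eq_of_pow_and_pow_div_prime hn0 ?_ ?_
    · have h1 : m ∣ Polynomial.X ^ n - 1 := by
        apply minpoly.dvd
        rw [map_sub, map_pow, Polynomial.aeval_X, map_one, ← map_pow, hzn, map_one, sub_self]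
      have h2 := Polynomial.aeval_eq_zero_of_dvd_aeval_eq_zero h1 hξ
      rw [map_sub, map_pow, Polynomial.aeval_X, map_one, sub_eq_zero] at h2
      exact h2
    · intro s hs hsn h1
      have hgo : orderOf (z ^ (n / s)) = s := by
        rw [orderOf_pow_of_dvd (Nat.div_pos (Nat.le_of_dvd hn0 hsn) hs.pos).ne' (by rw [hz]; exact Nat.div_dvd_of_dvd hsn),
          hz, Nat.div_div_self hsn hn0.ne']
      have hsp : s ≠ p := fun h2 => hpn (h2 ▸ hsn)
      have h2 : m ∣ (minpoly F (ρ (z ^ (n / s)))).comp (Polynomial.X ^ (n / s)) := by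
        apply minpoly.dvd
        rw [Polynomial.aeval_comp, map_pow, Polynomial.aeval_X, ← map_pow, minpoly.aeval]
      have h3 := Polynomial.aeval_eq_zero_of_dvd_aeval_eq_zero h2 hξ
      rw [Polynomial.aeval_comp, map_pow, Polynomial.aeval_X, h1] at h3
      rw [show (1 : E) = algebraMap F E 1 by rw [map_one], Polynomial.aeval_algebraMap_apply] at h3
      have h4 := (map_eq_zero (algebraMap F E)).1 h3
      have h5 : (minpoly F (ρ (z ^ (n / s)))).IsRoot 1 := by
        rw [Polynomial.IsRoot.def]
        simpa using h4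
      obtain ⟨v, hv⟩ := ((Module.End.hasEigenvalue_iff_isRoot).2 h5).exists_hasEigenvector
      apply hv.2
      refine h _ (by rw [hgo]; exact hs) (by rw [hgo]; exact hsp) v ?_
      have := hv.apply_eq_smul
      rwa [one_smul] at this
  have hpow : ∀ ξ : E, Polynomial.aeval ξ m = 0 → ∀ a b : ℕ, ξ ^ a = ξ ^ b ↔ (a : ZMod n) = b := by
    intro ξ hξ a b
    have h1 := hord ξ hξ
    have h0 : ξ ≠ 0 := by
      rintro rfl
      rw [orderOf_zero] at h1
      exact hn0.ne h1
    have ho' : orderOf (Units.mk0 ξ h0) = n := by rw [← h1, ← orderOf_units, Units.val_mk0]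
    rw [ZMod.natCast_eq_natCast_iff]
    conv_rhs => rw [← ho']
    rw [← pow_eq_pow_iff_modEq, Units.ext_iff, Units.val_pow_eq_pow_val, Units.val_pow_eq_pow_val, Units.val_mk0]
  have hzpow : ∀ a b : ℕ, z ^ a = z ^ b ↔ (a : ZMod n) = b := by
    intro a b
    rw [pow_eq_pow_iff_modEq, hz, ZMod.natCast_eq_natCast_iff]
  -- the subgroup of exponents preserving the roots
  let S : (ZMod n)ˣ → Prop := fun u => ∀ ξ : E, Polynomial.aeval ξ m = 0 → Polynomial.aeval (ξ ^ (u : ZMod n).val) m = 0
  have hSmul : ∀ u v, S u → S v → S (u * v) := by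
    intro u v hu hv ξ hξ
    have h1 := hv _ (hu ξ hξ)
    rw [← pow_mul] at h1
    have h2 : ξ ^ ((u : ZMod n).val * (v : ZMod n).val) = ξ ^ ((u * v : (ZMod n)ˣ) : ZMod n).val := by
      rw [hpow ξ hξ, Nat.cast_mul, ZMod.natCast_zmod_val, ZMod.natCast_zmod_val, ZMod.natCast_zmod_val, Units.val_mul]
    rwa [h2] at h1
  have hSone : S 1 := by
    intro ξ hξ
    have h2 : ξ ^ ((1 : (ZMod n)ˣ) : ZMod n).val = ξ ^ 1 := by
      rw [hpow ξ hξ, ZMod.natCast_zmod_val, Units.val_one, Nat.cast_one]
    rw [h2, pow_one]; exact hξ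
  have hSpow : ∀ u, S u → ∀ k : ℕ, S (u ^ k) := by
    intro u hu k
    induction k with
    | zero => rw [pow_zero]; exact hSone
    | succ k ih => rw [pow_succ]; exact hSmul _ _ ih hu
  let H : Subgroup (ZMod n)ˣ :=
    { carrier := {u | S u}
      mul_mem' := fun {u v} hu hv => hSmul u v hu hv
      one_mem' := hSone
      inv_mem' := fun {u} hu => by
        have h1 : u⁻¹ = u ^ (orderOf u - 1) := by
          rw [inv_eq_iff_mul_eq_one, ← pow_succ', Nat.sub_add_cancel (orderOf_pos u), pow_orderOf_eq_one]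
        rw [h1]
        exact hSpow u hu _ }
  have hHcard : Nat.card H ≤ Module.finrank F W := by
    have hinj : Function.Injective (fun u : H => (⟨ζ ^ ((u : (ZMod n)ˣ) : ZMod n).val, by
        rw [Polynomial.mem_rootSet]
        exact ⟨minpoly.ne_zero hint, u.2 ζ hζ⟩⟩ : m.rootSet E)) := by
      intro u v huv
      have h1 := congrArg Subtype.val huv
      simp only at h1
      rw [hpow ζ hζ, ZMod.natCast_zmod_val, ZMod.natCast_zmod_val] at h1
      exact Subtype.ext (Units.ext h1)
    have h1 : Nat.card H ≤ Nat.card (m.rootSet E) := by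
      have : Finite (m.rootSet E) := (Polynomial.rootSet_finite m E).to_subtype
      exact Nat.card_le_card_of_injective _ hinj
    have h2 : Nat.card (m.rootSet E) ≤ m.natDegree := by
      rw [Nat.card_coe_set_eq]
      exact Polynomial.ncard_rootSet_le m E
    have h3 : m.natDegree ≤ Module.finrank F W := by
      have h4 : m ∣ (ρ z).charpoly := LinearMap.minpoly_dvd_charpoly (ρ z)
      rw [← LinearMap.charpoly_natDegree (ρ z)]
      exact Polynomial.natDegree_le_of_dvd h4 (LinearMap.charpoly_monic (ρ z)).ne_zero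
    exact h1.trans (h2.trans h3)
  -- Frobenius
  obtain ⟨f, hf⟩ : ∃ f : ℕ, Nat.card F = p ^ f := by
    have := Fintype.ofFinite F
    obtain ⟨n, _, h2⟩ := FiniteField.card F p
    exact ⟨n, by rw [Nat.card_eq_fintype_card, h2]⟩
  have hqn : (Nat.card F).Coprime n := by
    rw [hf]
    exact Nat.Coprime.pow_left f ((Nat.Prime.coprime_iff_not_dvd hp).2 hpn)
  have hqH : ZMod.unitOfCoprime _ hqn ∈ H := by
    intro ξ hξ
    have h1 : ξ ^ ((ZMod.unitOfCoprime _ hqn : (ZMod n)ˣ) : ZMod n).val = ξ ^ Nat.card F := by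
      rw [hpow ξ hξ, ZMod.natCast_zmod_val, ZMod.coe_unitOfCoprime]
    rw [h1]
    have := Fintype.ofFinite F
    have h2 : Polynomial.aeval (ξ ^ Nat.card F) m = (Polynomial.aeval ξ m) ^ Nat.card F := by
      rw [Nat.card_eq_fintype_card]
      have h3 := FiniteField.expand_card (K := F) m
      rw [← map_pow, ← h3, Polynomial.expand_aeval]
    rw [h2, hξ, zero_pow Nat.card_pos.ne']
  refine ⟨Nat.card H, Nat.card_pos, hHcard, ?_, ?_⟩
  swap
  · have h1 : orderOf (⟨ZMod.unitOfCoprime _ hqn, hqH⟩ : H) ∣ Nat.card H := orderOf_dvd_natCard _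
    rw [Subgroup.orderOf_mk, ← orderOf_units, ZMod.coe_unitOfCoprime] at h1
    exact h1
  -- the action
  choose k hk using hconj
  have hkm : ∀ g, ((k g : ℕ) : ZMod n) = k g := fun g => rfl
  let θ0 : G →* ZMod n :=
    { toFun := fun g => (k g : ZMod n)
      map_one' := by
        rw [← Nat.cast_one, ← hzpow, ← hk, pow_one, one_mul, inv_one, mul_one]
      map_mul' := fun g g' => by
        rw [← Nat.cast_mul, ← hzpow, ← hk, pow_mul, ← hk g, conj_pow, ← hk g']
        group }
  let θ : G →* (ZMod n)ˣ := θ0.toHomUnits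
  have hθv : ∀ g, ((θ g : (ZMod n)ˣ) : ZMod n) = (k g : ZMod n) := fun g => rfl
  have hker : θ.ker = centralizer ({z} : Set G) := by
    ext g
    rw [MonoidHom.mem_ker, mem_centralizer_singleton_iff, Units.ext_iff, hθv, Units.val_one, ← Nat.cast_one, ← hzpow, ← hk,
      pow_one, mul_inv_eq_iff_eq_mul]
  have hrange : θ.range ≤ H := by
    rintro _ ⟨g, rfl⟩ ξ hξ
    have h0 : ξ ^ ((θ g : (ZMod n)ˣ) : ZMod n).val = ξ ^ k g := by
      rw [hpow ξ hξ, ZMod.natCast_zmod_val, hθv]
    rw [h0]
    have h3 : ρ g * ρ z = ρ (z ^ k g) * ρ g := by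
      rw [← hk, ← map_mul, ← map_mul]
      congr 1; group
    have h4 := semiconj_aeval h3 m
    rw [minpoly.aeval, mul_zero] at h4
    have h5 : Polynomial.aeval (ρ (z ^ k g)) m = 0 := by
      have h6 := congrArg (fun z => z * ρ g⁻¹) h4.symm
      simp only [zero_mul] at h6
      rwa [mul_assoc, ← map_mul, mul_inv_cancel, map_one, mul_one] at h6
    have h6 : m ∣ m.comp (Polynomial.X ^ k g) := by
      apply minpoly.dvd
      rw [Polynomial.aeval_comp, map_pow, Polynomial.aeval_X, ← map_pow]
      exact h5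
    have h7 := Polynomial.aeval_eq_zero_of_dvd_aeval_eq_zero h6 hξ
    rw [Polynomial.aeval_comp, map_pow, Polynomial.aeval_X] at h7
    exact h7
  rw [← hker, Subgroup.index_ker]
  exact Subgroup.card_dvd_of_le hrange

/-- the Fitting subgroup of a group of odd order acting fixed point freely, with `O_p = 1`, is a cyclic `p'`-group -/
theorem fit_cyc [CharP F p] [Nontrivial W] [Finite G] (hp : p.Prime) (h : Fpf p ρ) (hodd : Odd (Nat.card G))
    (hOp : pCore p G = ⊥) : IsCyclic (fittingSubgroup G) ∧ ¬ p ∣ Nat.card (fittingSubgroup G) := by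
  have hnil : Group.IsNilpotent (fittingSubgroup G) := Cfsg.Agent.Lib.Cores.fittingSubgroup_isNilpotent
  have hpd : ¬ p ∣ Nat.card (fittingSubgroup G) := by
    intro hd
    have := Fact.mk hp
    obtain ⟨P⟩ : Nonempty (Sylow p (fittingSubgroup G)) := inferInstance
    have hPn : (P : Subgroup (fittingSubgroup G)).Normal := Sylow.normal_of_normalizerCondition
      Group.normalizerCondition_of_isNilpotent P
    have hPc : (P : Subgroup (fittingSubgroup G)).Characteristic := P.characteristic_of_normal hPn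
    have hFn : (fittingSubgroup G).Normal := Cfsg.Agent.Lib.Cores.fittingSubgroup_normal
    have hN : ((P : Subgroup (fittingSubgroup G)).map (fittingSubgroup G).subtype).Normal :=
      ConjAct.normal_of_characteristic_of_normal
    have h1 : ((P : Subgroup (fittingSubgroup G)).map (fittingSubgroup G).subtype) ≤ pCore p G :=
      Cfsg.Agent.Lib.Cores.le_pCore hN (P.isPGroup'.map _)
    rw [hOp, le_bot_iff, Subgroup.map_eq_bot_iff_of_injective _ (fittingSubgroup G).subtype_injective] at h1
    have h2 := P.dvd_card_of_dvd_card hd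
    rw [h1, Subgroup.card_bot] at h2
    exact hp.one_lt.ne' (Nat.dvd_one.1 h2)
  refine ⟨?_, hpd⟩
  have hZ : IsZGroup (fittingSubgroup G) := by
    constructor
    intro s hs P
    have := Fact.mk hs
    rcases eq_or_ne s p with rfl | hsp
    · have h1 : (P : Subgroup (fittingSubgroup G)) = ⊥ := by
        rw [← Subgroup.card_eq_one, P.card_eq_multiplicity, Nat.factorization_eq_zero_of_not_dvd hpd, pow_zero]
      have h2 : Subsingleton P := ⟨fun a b => Subtype.ext (by
        have hx : ∀ x : fittingSubgroup G, x ∈ (P : Subgroup (fittingSubgroup G)) → x = 1 := fun x hx => by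
          rwa [h1, mem_bot] at hx
        exact (hx a a.2).trans (hx b b.2).symm)⟩
      infer_instance
    · rcases eq_or_ne s 2 with rfl | hs2
      · have hnd : ¬ 2 ∣ Nat.card (fittingSubgroup G) := by
          intro hd
          have h1 := hd.trans (Subgroup.card_subgroup_dvd_card (fittingSubgroup G))
          exact (Nat.not_even_iff_odd.2 hodd) (even_iff_two_dvd.2 h1)
        have h1 : (P : Subgroup (fittingSubgroup G)) = ⊥ := by
          rw [← Subgroup.card_eq_one, P.card_eq_multiplicity, Nat.factorization_eq_zero_of_not_dvd hnd, pow_zero]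
        have h2 : Subsingleton P := ⟨fun a b => Subtype.ext (by
          have hx : ∀ x : fittingSubgroup G, x ∈ (P : Subgroup (fittingSubgroup G)) → x = 1 := fun x hx => by
            rwa [h1, mem_bot] at hx
          exact (hx a a.2).trans (hx b b.2).symm)⟩
        infer_instance
      · have h1 : IsPGroup s ((P : Subgroup (fittingSubgroup G)).map (fittingSubgroup G).subtype) := P.isPGroup'.map _
        obtain ⟨Q, hQ⟩ := h1.exists_le_sylow
        have hcQ := h.cyc hp hs hs2 hsp Q
        let f : P →* Q := ((fittingSubgroup G).subtype.comp (P : Subgroup (fittingSubgroup G)).subtype).codRestrict Q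
          fun x => hQ ⟨x, x.2, rfl⟩
        refine isCyclic_of_injective f ?_
        intro a b hab
        have h2 : ((f a : Q) : G) = (f b : Q) := congrArg Subtype.val hab
        exact Subtype.ext (Subtype.ext h2)
  infer_instance

/-- **Lemma L.** A (solvable) group of odd order with `O_p = 1`, acting fixed point freely in dimension `< 3n`, with an element of prime
order `r`, `n` the order of `q` modulo `r`: the order divides `n` times a number prime to `p`. -/
theorem card_dvd [Finite F] [CharP F p] [FiniteDimensional F W] [Nontrivial W] [Finite G] (hp : p.Prime)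
    (h : Fpf p ρ) (hodd : Odd (Nat.card G)) (hsol : Group.IsSolvable G) (hOp : pCore p G = ⊥) {y : G} {r n : ℕ}
    (hr : r.Prime) (hr5 : 5 ≤ r) (hrp : r ≠ p) (hy : orderOf y = r) (hord : orderOf ((Nat.card F : ℕ) : ZMod r) = n)
    (hdim : Module.finrank F W < 3 * n) : ∃ c, ¬ p ∣ c ∧ Nat.card G ∣ c * n := by
  obtain ⟨hcyc, hpd⟩ := fit_cyc hp h hodd hOp
  have hC : centralizer (fittingSubgroup G : Set G) ≤ fittingSubgroup G := Cfsg.Agent.S0044.result
  have hyC := h.fit hp hr hr5 hrp hy (fun a ha => by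
    rw [hOp, mem_bot] at ha
    rw [ha]; exact Commute.one_right y)
  have hyF : y ∈ fittingSubgroup G := hC hyC
  obtain ⟨⟨z, hz⟩, hgen⟩ := hcyc.exists_generator
  have hZz : fittingSubgroup G = zpowers z := by
    apply le_antisymm
    · intro x hx
      obtain ⟨i, hi⟩ := mem_zpowers_iff.1 (hgen ⟨x, hx⟩)
      exact mem_zpowers_iff.2 ⟨i, congrArg Subtype.val hi⟩
    · exact zpowers_le.2 hz
  have hFn : (fittingSubgroup G).Normal := Cfsg.Agent.Lib.Cores.fittingSubgroup_normal
  have hconj : ∀ g : G, ∃ k : ℕ, g * z * g⁻¹ = z ^ k := by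
    intro g
    have h1 : g * z * g⁻¹ ∈ zpowers z := by rw [← hZz]; exact hFn.conj_mem z hz g
    obtain ⟨k, hk⟩ := (isOfFinOrder_of_finite z).mem_powers_iff_mem_zpowers.2 h1
    exact ⟨k, hk.symm⟩
  have hcard : Nat.card (fittingSubgroup G) = orderOf z := by rw [hZz, Nat.card_zpowers]
  obtain ⟨D, hD0, hDd, hDi, hDq⟩ := exists_dvd hp h rfl (by rw [← hcard]; exact hpd) hconj
  have hrz : r ∣ orderOf z := by
    rw [← hcard, ← hy, ← Subgroup.orderOf_mk y hyF]
    exact orderOf_dvd_natCard _
  have hnD : n ∣ D := by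
    refine dvd_trans ?_ hDq
    rw [← hord]
    have h1 : (ZMod.castHom hrz (ZMod r)) ((Nat.card F : ℕ) : ZMod (orderOf z)) = ((Nat.card F : ℕ) : ZMod r) := by
      rw [map_natCast]
    rw [← h1]
    exact orderOf_map_dvd (ZMod.castHom hrz (ZMod r)).toMonoidHom _
  have hD2 : D ∣ 2 * n := by
    obtain ⟨k, rfl⟩ := hnD
    have h1 : k < 3 := by
      by_contra h2
      have : n * 3 ≤ n * k := Nat.mul_le_mul_left n (by omega)
      omega
    have h2 : 0 < k := by
      rcases Nat.eq_zero_or_pos k with h3 | h3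
      · rw [h3, mul_zero] at hD0
        exact absurd hD0 (lt_irrefl 0)
      · exact h3
    interval_cases k
    · rw [mul_one]; exact dvd_mul_left n 2
    · rw [mul_comm]
  have hcent : centralizer ({z} : Set G) ≤ fittingSubgroup G := by
    have h1 : centralizer ({z} : Set G) = centralizer (fittingSubgroup G : Set G) := by
      rw [hZz, zpowers_eq_closure, centralizer_closure]
    rw [h1]; exact hC
  refine ⟨orderOf z, by rw [← hcard]; exact hpd, ?_⟩
  have hidx : (centralizer ({z} : Set G)).index ∣ n := by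
    have h1 : (centralizer ({z} : Set G)).index ∣ Nat.card G := Subgroup.index_dvd_card _
    have h2 : Odd (centralizer ({z} : Set G)).index := by
      rcases Nat.even_or_odd (centralizer ({z} : Set G)).index with h3 | h3
      · exact absurd (even_iff_two_dvd.2 ((even_iff_two_dvd.1 h3).trans h1)) (Nat.not_even_iff_odd.2 hodd)
      · exact h3
    have h3 : ((centralizer ({z} : Set G)).index).Coprime 2 := h2.coprime_two_right
    exact h3.dvd_of_dvd_mul_left (hDi.trans hD2)
  rw [← Subgroup.card_mul_index (centralizer ({z} : Set G))]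
  refine mul_dvd_mul ?_ hidx
  rw [← hcard]
  exact Subgroup.card_dvd_of_le hcent

end eig

end Cfsg.Agent.H308.D2
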