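import Mathlib
import Cfsg.Agent.H308.D2.Odd
import Cfsg.Agent.H308.D2.Rad
import Cfsg.Agent.H72.D2.Vs

/-!
# F-D+2, q odd: the case `O_p(K_1) = 1` (helper308; S3691)
-/

set_option autoImplicit false
set_option linter.unusedSectionVars false

open QuadraticMap Module Cfsg

namespace Cfsg.Agent.H308.D2

open Cfsg.Agent.H386.Rg Cfsg.Agent.H997.Rg

universe u v

section frame

variable {F : Type u} {V : Type v} [Field F] [Finite F] [AddCommGroup V] [Module F V] [FiniteDimensional F V]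
  {Q : QuadraticForm F V} {p f m : ℕ} {K : Subgroup (V ≃ₗ[F] V)}

theorem finite_equiv : Finite (V ≃ₗ[F] V) := by
  have : Finite V := Module.finite_of_finite F
  exact Finite.of_injective (fun k : V ≃ₗ[F] V => (k : V → V)) DFunLike.coe_injective

theorem finrank_hyp {e g : V} (he : Q e = 0) (hg : Q g = 0) (heg : polar Q e g = 1) :
    finrank F (Submodule.span F ({e, g} : Set V)) = 2 := by
  have hee : polar Q e e = 0 := by rw [polar_self', he, mul_zero]
  have hgg : polar Q g g = 0 := by rw [polar_self', hg, mul_zero]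
  have hge : polar Q g e = 1 := by rw [polar_comm, heg]
  have hli : LinearIndependent F ![e, g] := by
    rw [LinearIndependent.pair_iff]
    intro s t hst
    have h1 := congrArg (fun x => polar Q x g) hst
    have h3 := congrArg (fun x => polar Q x e) hst
    simp only [QuadraticMap.polar_add_left, QuadraticMap.polar_smul_left, hee, hgg, hge, heg, polar_zero_left, smul_eq_mul,
      mul_zero, mul_one, add_zero, zero_add] at h1 h3
    exact ⟨h1, h3⟩
  have h4 := finrank_span_eq_card hli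
  have h5 : Set.range ![e, g] = {e, g} := by
    ext x
    rw [Set.mem_range, Fin.exists_fin_two]
    simp only [Matrix.cons_val_zero, Matrix.cons_val_one, Set.mem_insert_iff, Set.mem_singleton_iff]
    exact or_congr eq_comm eq_comm
  rw [h5, Fintype.card_fin] at h4
  exact h4

theorem hyp_perp {e g : V} (he : Q e = 0) (hg : Q g = 0) (heg : polar Q e g = 1) {w : V}
    (hw : w ∈ Submodule.span F ({e, g} : Set V)) (hwe : polar Q w e = 0) (hwg : polar Q w g = 0) : w = 0 := by
  have hee : polar Q e e = 0 := by rw [polar_self', he, mul_zero]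
  have hgg : polar Q g g = 0 := by rw [polar_self', hg, mul_zero]
  have hge : polar Q g e = 1 := by rw [polar_comm, heg]
  obtain ⟨a, b, rfl⟩ := Submodule.mem_span_pair.1 hw
  simp only [QuadraticMap.polar_add_left, QuadraticMap.polar_smul_left, hee, hgg, hge, heg, smul_eq_mul,
      mul_zero, mul_one, add_zero, zero_add] at hwe hwg
  rw [hwe, hwg]; simp

theorem exists_odd_pow {v : V} (h : D2 Q p f m K) (hp2 : p ≠ 2) (hv : Q v ≠ 0) {k : V ≃ₗ[F] V} (hk : k ∈ stb K v) :
    ∃ j : ℕ, k ^ (2 * j + 1) = 1 := by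
  obtain ⟨j, hj⟩ := h.odd_stb hp2 hv
  refine ⟨j, ?_⟩
  have h1 : (⟨k, hk⟩ : stb K v) ^ Nat.card (stb K v) = 1 := by
    have := finite_equiv (F := F) (V := V)
    exact pow_card_eq_one'
  rw [hj] at h1
  exact congrArg Subtype.val h1

/-- an element of the stabiliser of `v` preserving a hyperbolic plane through `v` fixes it pointwise -/
theorem fix_plane (h : D2 Q p f m K) (hp2 : p ≠ 2) {v : V} (hv : Q v ≠ 0) {k : V ≃ₗ[F] V} (hk : k ∈ stb K v)
    {e g : V} (he : Q e = 0) (hg : Q g = 0) (heg : polar Q e g = 1) (hvs : v ∈ Submodule.span F ({e, g} : Set V))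
    (hke : k e ∈ Submodule.span F ({e, g} : Set V)) (hkg : k g ∈ Submodule.span F ({e, g} : Set V)) :
    k e = e ∧ k g = g := by
  obtain ⟨α, β, rfl⟩ := Submodule.mem_span_pair.1 hvs
  have hαβ : α ≠ 0 ∧ β ≠ 0 := by
    rw [Q_comb, he, hg, heg] at hv
    constructor
    · rintro rfl; simp at hv
    · rintro rfl; simp at hv
  have h1 := sub_mem_of_odd Q (two_ne h hp2) (⊥ : Submodule F V) he hg heg (by
      intro w hw
      rw [(Submodule.mem_bot F).1 hw, QuadraticMap.map_zero]) (by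
      intro w hw
      rw [(Submodule.mem_bot F).1 hw, polar_zero_left]) (by
      intro w hw
      rw [(Submodule.mem_bot F).1 hw, polar_zero_left]) hαβ.1 hαβ.2 k (h.iso k hk.1) (by
      intro w hw
      rw [(Submodule.mem_bot F).1 hw, map_zero]
      exact Submodule.zero_mem _) (by
      obtain ⟨a, b, hab⟩ := Submodule.mem_span_pair.1 hke
      exact ⟨0, Submodule.zero_mem _, a, b, by rw [zero_add, hab]⟩) (by
      obtain ⟨a, b, hab⟩ := Submodule.mem_span_pair.1 hkg
      exact ⟨0, Submodule.zero_mem _, a, b, by rw [zero_add, hab]⟩) hk.2 (exists_odd_pow h hp2 hv hk)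
  exact ⟨sub_eq_zero.1 ((Submodule.mem_bot F).1 h1.1), sub_eq_zero.1 ((Submodule.mem_bot F).1 h1.2)⟩

theorem r_facts (h : D2 Q p f m K) {r : ℕ} (hr : r.Prime) (hord : orderOf (p : ZMod r) = f * (m - 1)) :
    r ≠ p ∧ 5 ≤ r ∧ orderOf ((Nat.card F : ℕ) : ZMod r) = m - 1 := by
  have hm := h.hm
  have hf := h.hf
  have := Fact.mk hr
  have h4 : 4 ≤ f * (m - 1) := by
    have : 1 * 4 ≤ f * (m - 1) := Nat.mul_le_mul hf (by omega)
    omega
  have hrp : r ≠ p := by
    rintro rfl
    rw [ZMod.natCast_self, orderOf_zero] at hord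
    omega
  refine ⟨hrp, ?_, ?_⟩
  · have h0 : (p : ZMod r) ≠ 0 := by
      rw [Ne, ZMod.natCast_eq_zero_iff]
      intro hd
      exact hrp ((Nat.prime_dvd_prime_iff_eq hr h.hp).1 hd)
    have h5 := ZMod.orderOf_dvd_card_sub_one h0
    rw [hord] at h5
    have h6 := Nat.le_of_dvd (by have := hr.two_le; omega) h5
    omega
  · rw [h.hF, Nat.cast_pow, orderOf_pow_of_dvd (by omega) (by rw [hord]; exact dvd_mul_right _ _), hord,
      Nat.mul_div_cancel_left _ (by omega)]

/-- **the case `O_p(K_1) = 1`** -/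
theorem case_bot (h : D2 Q p f m K) (hp2 : p ≠ 2) {r : ℕ} {y : V ≃ₗ[F] V} {e g : V} (Y : YD Q p f m K r y e g)
    (hbot : pCore p (stb K (e + g)) = ⊥) (hsol : Group.IsSolvable (stb K (e + g))) :
    ∃ c, ¬ p ∣ c ∧ Nat.card (stb K (e + g)) ∣ c * (m - 1) := by
  classical
  have hfinE := finite_equiv (F := F) (V := V)
  have hcharP := charP h
  set K1 := stb K (e + g) with hK1
  have hv : Q (e + g) ≠ 0 := by rw [Y.hv]; exact one_ne_zero
  have hodd : Odd (Nat.card K1) := h.odd_stb hp2 hv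
  obtain ⟨hrp, hr5, hordq⟩ := r_facts h Y.hr Y.hord
  have hord2 : ∀ k : K1, orderOf k ≠ 2 := by
    intro k hk
    have h1 : orderOf k ∣ Nat.card K1 := orderOf_dvd_natCard k
    rw [hk] at h1
    exact (Nat.not_even_iff_odd.2 hodd) (even_iff_two_dvd.2 h1)
  set y' : K1 := ⟨y, Y.hys⟩ with hy'
  have hy'r : orderOf y' = r := by rw [hy', Subgroup.orderOf_mk, Y.hyr]
  -- a prime s with O_s ≠ 1
  obtain ⟨s, hs, hsne⟩ : ∃ s : ℕ, s.Prime ∧ pCore s K1 ≠ ⊥ := by
    by_contra hcon
    push Not at hcon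
    have h1 : fittingSubgroup K1 = ⊥ := by
      rw [Cfsg.Agent.Lib.Cores.fittingSubgroup_eq_iSup_pCore, iSup_eq_bot]
      exact fun s => hcon s s.2
    have h2 : Subgroup.centralizer (fittingSubgroup K1 : Set K1) ≤ fittingSubgroup K1 := Cfsg.Agent.S0044.result
    have h3 : y' ∈ Subgroup.centralizer (fittingSubgroup K1 : Set K1) := by
      rw [h1, Subgroup.mem_centralizer_iff]
      intro x hx
      have : x = 1 := by simpa using hx
      rw [this, one_mul, mul_one]
    have h4 := h2 h3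
    rw [h1, Subgroup.mem_bot] at h4
    rw [h4, orderOf_one] at hy'r
    omega
  have := Fact.mk hs
  have hsp : s ≠ p := by
    rintro rfl
    exact hsne hbot
  have hPn : (pCore s K1).Normal := Cfsg.Agent.Lib.Cores.pCore_normal s
  have hPp : IsPGroup s (pCore s K1) := Cfsg.Agent.Lib.Cores.pCore_isPGroup s
  have hnt : Nontrivial (pCore s K1) := (Subgroup.nontrivial_iff_ne_bot _).2 hsne
  obtain ⟨z, hz, hzo⟩ := exists_central hs hPp hnt
  set a : K1 := (z : K1) with ha
  have hao : orderOf a = s := by rw [ha, Subgroup.orderOf_coe]; exact hzo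
  have hs2 : s ≠ 2 := fun h1 => hord2 a (by rw [hao, h1])
  have hao' : orderOf (a : V ≃ₗ[F] V) = s := by rw [Subgroup.orderOf_coe]; exact hao
  have hconj : ∀ k : K1, k * a * k⁻¹ ∈ Subgroup.zpowers a := by
    intro k
    have h1 : k * a * k⁻¹ ∈ pCore s K1 := hPn.conj_mem a z.2 k
    have h2 : Commute a (k * a * k⁻¹) := by
      have := Subgroup.mem_center_iff.1 hz ⟨_, h1⟩
      exact (congrArg Subtype.val this).symm
    have h3 : orderOf (k * a * k⁻¹) = s := by rw [← hao]; exact (MulAut.conj k).orderOf_eq a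
    have h4 := h.same hv (a := (a : V ≃ₗ[F] V)) (b := ((k * a * k⁻¹ : K1) : V ≃ₗ[F] V)) a.2 (k * a * k⁻¹ : K1).2
      (congrArg Subtype.val h2) hs hsp hs2 hao' (by rw [Subgroup.orderOf_coe]; exact h3)
    obtain ⟨i, hi⟩ := Subgroup.mem_zpowers_iff.1 h4
    exact Subgroup.mem_zpowers_iff.2 ⟨i, Subtype.ext hi⟩
  obtain ⟨e', g', he', hg', heg', hvs', hfix'⟩ := h.fixplane' hv a.2 (by rw [hao']; exact hs) (by rw [hao']; exact hsp)
    (by rw [hao']; exact hs2)
  have hpres : ∀ k : K1, ∀ x : V, (a : V ≃ₗ[F] V) x = x → (a : V ≃ₗ[F] V) ((k : V ≃ₗ[F] V) x) = (k : V ≃ₗ[F] V) x := by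
    intro k x hx
    obtain ⟨i, hi⟩ := Subgroup.mem_zpowers_iff.1 (hconj k⁻¹)
    have h1 : ∀ i : ℤ, ((a ^ i : K1) : V ≃ₗ[F] V) x = x := by
      have hst : ∀ b : K1, (b : V ≃ₗ[F] V) x = x → ((b⁻¹ : K1) : V ≃ₗ[F] V) x = x := by
        intro b hb
        have h3 : ((b⁻¹ : K1) : V ≃ₗ[F] V) ((b : V ≃ₗ[F] V) x) = x := by
          have : (b⁻¹ * b : K1) = 1 := inv_mul_cancel b
          exact congrArg (fun l : K1 => (l : V ≃ₗ[F] V) x) this
        rwa [hb] at h3
      have hnat : ∀ n : ℕ, ((a ^ n : K1) : V ≃ₗ[F] V) x = x := by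
        intro n
        induction n with
        | zero => rw [pow_zero]; rfl
        | succ n ih =>
          rw [pow_succ]
          change ((a ^ n : K1) : V ≃ₗ[F] V) ((a : V ≃ₗ[F] V) x) = x
          rw [hx, ih]
      intro i
      rcases Int.eq_nat_or_neg i with ⟨n, rfl | rfl⟩
      · rw [zpow_natCast]; exact hnat n
      · rw [zpow_neg, zpow_natCast]; exact hst _ (hnat n)
    have h2 : a * k = k * (k⁻¹ * a * k⁻¹⁻¹) := by group
    have h3 : (a : V ≃ₗ[F] V) ((k : V ≃ₗ[F] V) x) = (k : V ≃ₗ[F] V) (((k⁻¹ * a * k⁻¹⁻¹ : K1) : V ≃ₗ[F] V) x) :=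
      congrArg (fun l : K1 => (l : V ≃ₗ[F] V) x) h2
    rw [h3, ← hi, h1]
  have hae' : (a : V ≃ₗ[F] V) e' = e' := (hfix' e').2 (Submodule.subset_span (by simp))
  have hag' : (a : V ≃ₗ[F] V) g' = g' := (hfix' g').2 (Submodule.subset_span (by simp))
  have hKfix' : ∀ k : K1, (k : V ≃ₗ[F] V) e' = e' ∧ (k : V ≃ₗ[F] V) g' = g' := by
    intro k
    exact fix_plane h hp2 hv k.2 he' hg' heg' hvs' ((hfix' _).1 (hpres k e' hae')) ((hfix' _).1 (hpres k g' hag'))
  have hspan : Submodule.span F ({e', g'} : Set V) = Submodule.span F ({e, g} : Set V) := by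
    apply Submodule.eq_of_le_of_finrank_le
    · rw [Submodule.span_le]
      rintro x (rfl | rfl)
      · exact (Y.fix _).1 (hKfix' y').1
      · exact (Y.fix _).1 (hKfix' y').2
    · rw [finrank_hyp he' hg' heg', finrank_hyp Y.he Y.hg Y.heg]
  have hKfix : ∀ k : K1, (k : V ≃ₗ[F] V) e = e ∧ (k : V ≃ₗ[F] V) g = g := by
    intro k
    have h1 : ∀ x ∈ Submodule.span F ({e, g} : Set V), (k : V ≃ₗ[F] V) x = x := by
      intro x hx
      rw [← hspan] at hx
      obtain ⟨α, β, rfl⟩ := Submodule.mem_span_pair.1 hx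
      rw [map_add, map_smul, map_smul, (hKfix' k).1, (hKfix' k).2]
    exact ⟨h1 e (Submodule.subset_span (by simp)), h1 g (Submodule.subset_span (by simp))⟩
  -- the action on the perp
  set C := Submodule.span F ({e, g} : Set V) with hC
  have hinv : ∀ k : K1, ∀ x ∈ perp Q C, (k : V ≃ₗ[F] V) x ∈ perp Q C := by
    intro k x hx w hw
    obtain ⟨α, β, rfl⟩ := Submodule.mem_span_pair.1 hw
    have h1 : (k : V ≃ₗ[F] V) (α • e + β • g) = α • e + β • g := by
      rw [map_add, map_smul, map_smul, (hKfix k).1, (hKfix k).2]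
    rw [← h1, polar_map (h.iso k k.2.1)]
    exact hx _ hw
  let ρ : K1 →* Module.End F (perp Q C) :=
    { toFun := fun k => ((k : V ≃ₗ[F] V) : V →ₗ[F] V).restrict (hinv k)
      map_one' := by ext x; rfl
      map_mul' := fun a b => by ext x; rfl }
  have hρ : ∀ (k : K1) (x : perp Q C), ((ρ k x : perp Q C) : V) = (k : V ≃ₗ[F] V) x := fun k x => rfl
  have hdimC : finrank F (perp Q C) = 2 * (m - 1) := by
    rw [finrank_perp h.nd, h.dim, hC, finrank_hyp Y.he Y.hg Y.heg]
    omega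
  have hm := h.hm
  have hntW : Nontrivial (perp Q C) := by
    apply Module.nontrivial_of_finrank_pos (R := F)
    rw [hdimC]; omega
  have hfpf : Fpf p ρ := by
    intro b hb hbp x hbx
    have hbo : orderOf (b : V ≃ₗ[F] V) = orderOf b := Subgroup.orderOf_coe b
    obtain ⟨e₂, g₂, he₂, hg₂, heg₂, -, hfix₂⟩ := h.fixplane' hv b.2 (by rw [hbo]; exact hb) (by rw [hbo]; exact hbp)
      (by rw [hbo]; exact hord2 b)
    have h1 : C = Submodule.span F ({e₂, g₂} : Set V) := by
      apply Submodule.eq_of_le_of_finrank_le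
      · rw [hC, Submodule.span_le]
        rintro x (rfl | rfl)
        · exact (hfix₂ _).1 (hKfix b).1
        · exact (hfix₂ _).1 (hKfix b).2
      · rw [hC, finrank_hyp he₂ hg₂ heg₂, finrank_hyp Y.he Y.hg Y.heg]
    have h2 : (x : V) ∈ C := (le_of_eq h1.symm) ((hfix₂ _).1 (by rw [← hρ, hbx]))
    apply Subtype.ext
    exact hyp_perp Y.he Y.hg Y.heg h2 (x.2 e (Submodule.subset_span (by simp))) (x.2 g (Submodule.subset_span (by simp)))
  exact card_dvd h.hp hfpf hodd hsol hbot Y.hr hr5 hrp hy'r hordq (by rw [hdimC]; omega)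

end frame

end Cfsg.Agent.H308.D2
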