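import Mathlib
import Cfsg.Agent.H308.D2.Bot

/-!
# F-D+2, q odd: `O_p(K_1) ≠ 1`, `m' = m - 1` odd (helper308; S3691)
-/

set_option autoImplicit false
set_option linter.unusedSectionVars false

open QuadraticMap Module Cfsg

namespace Cfsg.Agent.H308.D2

open Cfsg.Agent.H386.Rg Cfsg.Agent.H997.Rg

universe u v

section frame

variable {F : Type u} {V : Type v} [Field F] [Finite F] [AddCommGroup V] [Module F V] [FiniteDimensional F V]
  {Q : QuadraticForm F V} {p f m : ℕ} {K : Subgroup (V ≃ₗ[F] V)}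

/-- the largest normal `p`-subgroup of the stabiliser of `v`, as a subgroup of `GL(V)` -/
noncomputable def Op (p : ℕ) (K : Subgroup (V ≃ₗ[F] V)) (v : V) : Subgroup (V ≃ₗ[F] V) :=
  (pCore p (stb K v)).map (stb K v).subtype

theorem Op_le {v : V} : Op p K v ≤ stb K v := by
  rintro _ ⟨a, _, rfl⟩
  exact a.2

theorem Op_norm {v : V} {k : V ≃ₗ[F] V} (hk : k ∈ stb K v) {a : V ≃ₗ[F] V} (ha : a ∈ Op p K v) : k * a * k⁻¹ ∈ Op p K v := by
  obtain ⟨a, ha, rfl⟩ := ha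
  have hn : (pCore p (stb K v)).Normal := Cfsg.Agent.Lib.Cores.pCore_normal p
  exact ⟨⟨k, hk⟩ * a * ⟨k, hk⟩⁻¹, hn.conj_mem a ha ⟨k, hk⟩, rfl⟩

theorem Op_normalizer {v : V} {k : V ≃ₗ[F] V} (hk : k ∈ stb K v) : k ∈ Nr (Op p K v) := by
  rw [Subgroup.mem_normalizer_iff]
  intro a
  constructor
  · intro ha; exact Op_norm hk ha
  · intro ha
    have h1 := Op_norm (inv_mem hk) (show k * a * k⁻¹ ∈ Op p K v from ha)
    have h2 : k⁻¹ * (k * a * k⁻¹) * k⁻¹⁻¹ = a := by group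
    rwa [h2] at h1

theorem Op_pgroup {v : V} : IsPGroup p (Op p K v) := (Cfsg.Agent.Lib.Cores.pCore_isPGroup p).map _

theorem Op_ne_bot {v : V} (hne : pCore p (stb K v) ≠ ⊥) : Op p K v ≠ ⊥ := by
  rw [Op, Ne, Subgroup.map_eq_bot_iff_of_injective _ (stb K v).subtype_injective]
  exact hne

theorem Op_card {v : V} : Nat.card (Op p K v) = Nat.card (pCore p (stb K v)) :=
  Subgroup.card_map_of_injective (stb K v).subtype_injective

/-- a normal `p`-subgroup lies in `Op` -/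
theorem le_Op {v : V} (N : Subgroup (V ≃ₗ[F] V)) (hN : N ≤ stb K v) (hNn : ∀ k ∈ stb K v, ∀ a ∈ N, k * a * k⁻¹ ∈ N)
    (hNp : IsPGroup p N) : N ≤ Op p K v := by
  intro a ha
  refine ⟨⟨a, hN ha⟩, ?_, rfl⟩
  have h1 : (N.subgroupOf (stb K v)).Normal := by
    constructor
    rintro ⟨x, hx⟩ hxN ⟨k, hk⟩
    exact hNn k hk x hxN
  have h2 : IsPGroup p (N.subgroupOf (stb K v)) :=
    hNp.comap_of_injective (stb K v).subtype (stb K v).subtype_injective
  exact Cfsg.Agent.Lib.Cores.le_pCore h1 h2 ha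

/-- `y` acts on a `p`-subgroup `A` of order `p ^ j` without fixed points: the order of `p` modulo `r` divides `j` -/
theorem dvd_exp {G : Type*} [Group G] [Finite G] {r j : ℕ} (hr : r.Prime) (A : Subgroup G) (hA : Nat.card A = p ^ j) {y : G}
    (hyr : y ^ r = 1) (hyA : ∀ a ∈ A, y * a * y⁻¹ ∈ A) (hfix : ∀ a ∈ A, y * a = a * y → a = 1) :
    orderOf (p : ZMod r) ∣ j := by
  classical
  have := Fact.mk hr
  have : Fintype A := Fintype.ofFinite A
  let g : Function.End A := fun b => ⟨y * b * y⁻¹, hyA b b.2⟩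
  have hgi : ∀ (i : ℕ) (b : A), (((g ^ i) b : A) : G) = y ^ i * b * (y ^ i)⁻¹ := by
    intro i
    induction i with
    | zero =>
      intro b
      rw [pow_zero, pow_zero]
      change (b : G) = 1 * (b : G) * 1⁻¹
      group
    | succ i ih =>
      intro b
      rw [pow_succ', pow_succ']
      change y * ((g ^ i) b : A) * y⁻¹ = _
      rw [ih]
      group
  have hg : g ^ r ^ 1 = 1 := by
    rw [pow_one]
    funext b
    apply Subtype.ext
    rw [hgi, hyr]
    change 1 * (b : G) * 1⁻¹ = (b : G)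
    group
  have h1 := Equiv.Perm.card_fixedPoints_modEq hg
  have h2 : Fintype.card g.fixedPoints = 1 := by
    rw [Fintype.card_eq_one_iff]
    refine ⟨⟨1, Subtype.ext (show y * 1 * y⁻¹ = 1 by group)⟩, ?_⟩
    rintro ⟨b, hb⟩
    apply Subtype.ext
    apply Subtype.ext
    have h3 : y * (b : G) * y⁻¹ = b := congrArg Subtype.val hb
    exact hfix b b.2 (mul_inv_eq_iff_eq_mul.1 h3)
  rw [h2, ← Nat.card_eq_fintype_card, hA, ← ZMod.natCast_eq_natCast_iff, Nat.cast_pow, Nat.cast_one] at h1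
  exact orderOf_dvd_of_pow_eq_one h1

/-- a `p`-element of `K_1` commuting with `y` is trivial if `m - 1` is odd -/
theorem comm_odd (h : D2 Q p f m K) (hp2 : p ≠ 2) {r : ℕ} {y : V ≃ₗ[F] V} {e g : V} (Y : YD Q p f m K r y e g)
    (hm' : Odd (m - 1)) {a : V ≃ₗ[F] V} (ha : a ∈ stb K (e + g)) (hap : ∃ j : ℕ, a ^ p ^ j = 1) (hya : y * a = a * y) :
    a = 1 := by
  by_contra hne
  have hv : Q (e + g) ≠ 0 := by rw [Y.hv]; exact one_ne_zero
  obtain ⟨j, hj⟩ := hap
  have hAp : IsPGroup p (Subgroup.zpowers a) := by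
    intro x
    refine ⟨j, ?_⟩
    obtain ⟨k, hk⟩ := Subgroup.mem_zpowers_iff.1 x.2
    apply Subtype.ext
    rw [Subgroup.coe_pow, ← hk, Subgroup.coe_one, ← zpow_natCast, ← zpow_mul, mul_comm, zpow_mul, zpow_natCast, hj, one_zpow]
  have hyN : y ∈ Nr (Subgroup.zpowers a) := by
    apply Subgroup.centralizer_le_normalizer
    rw [Subgroup.mem_centralizer_iff]
    intro x hx
    obtain ⟨k, rfl⟩ := Subgroup.mem_zpowers_iff.1 hx
    exact ((show Commute y a from hya).symm.zpow_left k).eq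
  obtain ⟨W, R⟩ := exists_rad h hp2 Y (Subgroup.zpowers a) (Subgroup.zpowers_le.2 ha) hAp (by
    rw [Ne, Subgroup.zpowers_eq_bot]; exact hne) hyN
  have hcomm : ∀ x, y (a x) = a (y x) := fun x => congrArg (fun l : V ≃ₗ[F] V => l x) hya
  have hae : a e ∈ Submodule.span F ({e, g} : Set V) := (Y.fix _).1 (by rw [hcomm, Y.hye])
  have hag : a g ∈ Submodule.span F ({e, g} : Set V) := (Y.fix _).1 (by rw [hcomm, Y.hyg])
  have hvs : e + g ∈ Submodule.span F ({e, g} : Set V) :=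
    Submodule.add_mem _ (Submodule.subset_span (by simp)) (Submodule.subset_span (by simp))
  obtain ⟨h1, h2⟩ := fix_plane h hp2 hv ha Y.he Y.hg Y.heg hvs hae hag
  apply hne
  refine h.alt_odd hm' R.ts R.dim ha.1 ?_
  intro z hz
  obtain ⟨w, hw, α, β, rfl⟩ := R.mem z hz
  rw [map_add, map_add, map_smul, map_smul, h1, h2, R.fixA a (Subgroup.mem_zpowers a) w hw]

/-- **`m - 1` odd, `O_p(K_1) ≠ 1`**: `O_p(K_1)` has order `q ^ (m - 1)` -/
theorem case_odd (h : D2 Q p f m K) (hp2 : p ≠ 2) {r : ℕ} {y : V ≃ₗ[F] V} {e g : V} (Y : YD Q p f m K r y e g)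
    (hm' : Odd (m - 1)) (hne : pCore p (stb K (e + g)) ≠ ⊥)
    (hdvd : Nat.card (stb K (e + g)) ∣ p ^ (f * (m - 1)) * (p ^ (f * (m - 1)) - 1)) :
    Nat.card (Op p K (e + g)) = p ^ (f * (m - 1)) := by
  have hfinE := finite_equiv (F := F) (V := V)
  have := Fact.mk h.hp
  obtain ⟨j, hj⟩ := IsPGroup.iff_card.1 (Op_pgroup (p := p) (K := K) (v := e + g))
  have h1 : orderOf (p : ZMod r) ∣ j := by
    refine dvd_exp Y.hr _ hj Y.pow (fun a ha => Op_norm Y.hys ha) ?_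
    intro a ha hya
    obtain ⟨i, hi⟩ := Op_pgroup (p := p) (K := K) (v := e + g) ⟨a, ha⟩
    exact comm_odd h hp2 Y hm' (Op_le ha) ⟨i, congrArg Subtype.val hi⟩ hya
  rw [Y.hord] at h1
  have h2 : j ≠ 0 := by
    rintro rfl
    rw [pow_zero] at hj
    exact Op_ne_bot hne (Subgroup.card_eq_one.1 hj)
  have h3 : f * (m - 1) ≤ j := Nat.le_of_dvd (Nat.pos_of_ne_zero h2) h1
  have h4 : p ^ j ∣ p ^ (f * (m - 1)) * (p ^ (f * (m - 1)) - 1) := by
    rw [← hj]
    exact (Subgroup.card_dvd_of_le Op_le).trans hdvd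
  have hm := h.hm
  have hf := h.hf
  have hn : f * (m - 1) ≠ 0 := (Nat.mul_pos (by omega) (by omega)).ne'
  have h5 : (p ^ j).Coprime (p ^ (f * (m - 1)) - 1) := by
    apply Nat.Coprime.pow_left
    rw [Nat.Prime.coprime_iff_not_dvd h.hp]
    intro hd
    have h6 : p ∣ p ^ (f * (m - 1)) := dvd_pow_self p hn
    have h7 : 1 ≤ p ^ (f * (m - 1)) := Nat.one_le_pow _ _ h.hp.pos
    have h8 := (Nat.dvd_sub h6 hd)
    rw [Nat.sub_sub_self h7] at h8
    exact h.hp.one_lt.ne' (Nat.dvd_one.1 h8)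
  have h6 := (Nat.pow_dvd_pow_iff_le_right h.hp.one_lt).1 (h5.dvd_of_dvd_mul_right h4)
  rw [hj, le_antisymm h6 h3]

end frame

end Cfsg.Agent.H308.D2
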