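import Mathlib
import Cfsg.Agent.H308.D2.OddDim
import Cfsg.Agent.H386.Rg.AlphaA

/-!
# F-D+2, q odd: `O_p(K_1) ≠ 1`, `m' = m - 1` even (helper308; S3691)
-/

set_option autoImplicit false
set_option linter.unusedSectionVars false

open QuadraticMap Module Cfsg

namespace Cfsg.Agent.H308.D2

open Cfsg.Agent.H386.Rg Cfsg.Agent.H997.Rg

universe u v

section frame

variable {F : Type u} {V : Type v} [Field F] [Finite F] [AddCommGroup V] [Module F V] [FiniteDimensional F V]
  {Q : QuadraticForm F V} {p f m : ℕ} {K : Subgroup (V ≃ₗ[F] V)}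

theorem perp_perp (h : D2 Q p f m K) (W : Submodule F V) : perp Q (perp Q W) = W := by
  symm
  apply Submodule.eq_of_le_of_finrank_le
  · intro w hw x hx
    rw [polar_comm]; exact hx w hw
  · rw [finrank_perp h.nd, finrank_perp h.nd]
    have := Submodule.finrank_le W
    omega

section even

variable {r : ℕ} {y : V ≃ₗ[F] V} {e g : V} {W : Submodule F V}

/-- (a) the pointwise stabiliser of `W` is `A` -/
theorem mem_Op (h : D2 Q p f m K) (hp2 : p ≠ 2) (Y : YD Q p f m K r y e g)
    (R : RD Q m K y e g (Op p K (e + g)) W) {k : V ≃ₗ[F] V} (hk : k ∈ stb K (e + g)) (hkW : ∀ w ∈ W, k w = w) :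
    k ∈ Op p K (e + g) := by
  have hfinE := finite_equiv (F := F) (V := V)
  have := Fact.mk h.hp
  have hv : Q (e + g) ≠ 0 := by rw [Y.hv]; exact one_ne_zero
  have hodd : Odd (Nat.card (stb K (e + g))) := h.odd_stb hp2 hv
  let N : Subgroup (V ≃ₗ[F] V) :=
    { carrier := {k | k ∈ stb K (e + g) ∧ ∀ w ∈ W, k w = w}
      one_mem' := ⟨one_mem _, fun w _ => rfl⟩
      mul_mem' := fun {a b} ha hb => ⟨mul_mem ha.1 hb.1, fun w hw => by
        change a (b w) = w
        rw [hb.2 w hw, ha.2 w hw]⟩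
      inv_mem' := fun {a} ha => ⟨inv_mem ha.1, fun w hw => by
        change a.symm w = w
        rw [LinearEquiv.symm_apply_eq]
        exact (ha.2 w hw).symm⟩ }
  refine le_Op (p := p) N (fun k hk => hk.1) ?_ ?_ (show k ∈ N from ⟨hk, hkW⟩)
  · rintro k hk a ⟨ha, haW⟩
    refine ⟨mul_mem (mul_mem hk ha) (inv_mem hk), fun w hw => ?_⟩
    have h1 : k⁻¹ w ∈ W := R.inv k⁻¹ (inv_mem hk.1) (Op_normalizer (inv_mem hk)) (inv_mem hk).2 w hw
    change k (a (k⁻¹ w)) = w
    rw [haW _ h1]
    change (k * k⁻¹) w = w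
    rw [mul_inv_cancel]; rfl
  · rw [IsPGroup.iff_card]
    refine ⟨_, Nat.eq_prime_pow_of_unique_prime_dvd Nat.card_pos.ne' ?_⟩
    intro s hs hsd
    have := Fact.mk hs
    by_contra hsp
    obtain ⟨⟨b, hb⟩, hbo⟩ := exists_prime_orderOf_dvd_card' (G := N) s hsd
    rw [Subgroup.orderOf_mk] at hbo
    have h1 := h.fix_le_two hb.1.1 (by rw [hbo]; exact hs) (by rw [hbo]; exact hsp)
    have h2 : W ≤ fixS b := fun w hw => mem_fixS.2 (hb.2 w hw)
    have h3 := Submodule.finrank_mono h2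
    rw [R.dim] at h3
    have := h.hm
    omega

/-- `A` acts trivially on `W^⊥ / W` -/
theorem sub_mem (h : D2 Q p f m K) (hp2 : p ≠ 2) (Y : YD Q p f m K r y e g)
    (R : RD Q m K y e g (Op p K (e + g)) W) {a : V ≃ₗ[F] V} (ha : a ∈ Op p K (e + g)) : a e - e ∈ W ∧ a g - g ∈ W := by
  have hv : Q (e + g) ≠ 0 := by rw [Y.hv]; exact one_ne_zero
  have hk := Op_le ha
  have hperp : ∀ x, (∀ w ∈ W, polar Q x w = 0) → ∀ w ∈ W, polar Q (a x) w = 0 := by
    intro x hx w hw
    have h1 := polar_map (h.iso a hk.1) x w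
    rw [R.fixA a ha w hw] at h1
    rw [h1, hx w hw]
  refine sub_mem_of_odd Q (two_ne h hp2) W Y.he Y.hg Y.heg R.ts R.pe R.pg (α := 1) (β := 1) one_ne_zero one_ne_zero a
    (h.iso a hk.1) (fun w hw => by rw [R.fixA a ha w hw]; exact hw) (R.mem _ (hperp e fun w hw => by
      rw [polar_comm]; exact R.pe w hw)) (R.mem _ (hperp g fun w hw => by
      rw [polar_comm]; exact R.pg w hw)) ?_ (exists_odd_pow h hp2 hv hk)
  rw [one_smul, one_smul]
  exact hk.2

/-- (c) `C_V(a) ≤ W^⊥` -/
theorem fix_perp (h : D2 Q p f m K) (hp2 : p ≠ 2) (Y : YD Q p f m K r y e g)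
    (R : RD Q m K y e g (Op p K (e + g)) W) {a : V ≃ₗ[F] V} (ha : a ∈ Op p K (e + g)) (ha1 : a ≠ 1) {z : V} (hz : a z = z) :
    z ∈ perp Q W := by
  by_contra hcon
  rw [mem_perp] at hcon
  push Not at hcon
  obtain ⟨w0, hw0, hne⟩ := hcon
  have hv : Q (e + g) ≠ 0 := by rw [Y.hv]; exact one_ne_zero
  refine ha1 (eq_one_of_fix h hp2 R.ts hv ?_ (Op_le ha).1 (Op_le ha).2 (R.fixA a ha) hz hw0 hne)
  intro w hw
  rw [QuadraticMap.polar_add_left, polar_comm Q e, polar_comm Q g, R.pe w hw, R.pg w hw, add_zero]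

/-- (c') `A` fixes `e` and `g` if `m - 1` is even -/
theorem fix_e (h : D2 Q p f m K) (hp2 : p ≠ 2) (hm' : Even (m - 1)) (Y : YD Q p f m K r y e g)
    (R : RD Q m K y e g (Op p K (e + g)) W) {a : V ≃ₗ[F] V} (ha : a ∈ Op p K (e + g)) : a e = e ∧ a g = g := by
  obtain ⟨h1, h2⟩ := sub_mem h hp2 Y R ha
  have hav : a (e + g) = e + g := (Op_le ha).2
  have hu : a e = e := by
    by_contra hne
    have ha1 : a ≠ 1 := by
      rintro rfl
      exact hne rfl
    set u := a e - e with hu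
    have hu0 : u ≠ 0 := fun h3 => hne (sub_eq_zero.1 h3)
    have hae : a e = e + u := by rw [hu]; abel
    have hag : a g = g - u := by
      rw [map_add, hae] at hav
      have : a g = e + g - (e + u) := by rw [← hav]; abel
      rw [this]; abel
    have hspan : fixS a = W ⊔ Submodule.span F {e + g} := by
      apply le_antisymm
      · intro x hx
        rw [mem_fixS] at hx
        obtain ⟨w, hw, α, β, rfl⟩ := R.mem x (fix_perp h hp2 Y R ha ha1 hx)
        rw [map_add, map_add, map_smul, map_smul, R.fixA a ha w hw, hae, hag] at hx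
        have h3 : (α - β) • u = 0 := by
          have h4 : w + α • (e + u) + β • (g - u) - (w + α • e + β • g) = 0 := by rw [hx, sub_self]
          rw [← h4]; module
        have h4 : α = β := by
          rcases smul_eq_zero.1 h3 with h5 | h5
          · exact sub_eq_zero.1 h5
          · exact absurd h5 hu0
        rw [h4, add_assoc, ← smul_add]
        exact Submodule.add_mem_sup hw (Submodule.smul_mem _ _ (Submodule.mem_span_singleton_self _))
      · refine sup_le (fun w hw => mem_fixS.2 (R.fixA a ha w hw)) ?_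
        rw [Submodule.span_le, Set.singleton_subset_iff]
        exact mem_fixS.2 hav
    have hdisj : W ⊓ Submodule.span F {e + g} = ⊥ := by
      rw [eq_bot_iff]
      rintro x ⟨hxW, hx⟩
      obtain ⟨c, rfl⟩ := Submodule.mem_span_singleton.1 hx
      have h3 := R.ts _ hxW
      rw [QuadraticMap.map_smul, Y.hv, smul_eq_mul, mul_one] at h3
      have h4 : c = 0 := mul_self_eq_zero.1 h3
      rw [h4, zero_smul]; exact Submodule.zero_mem _
    have hev0 : e + g ≠ 0 := by
      intro h3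
      have := Y.hv
      rw [h3, QuadraticMap.map_zero] at this
      exact zero_ne_one this
    have h3 := Submodule.finrank_sup_add_finrank_inf_eq W (Submodule.span F {e + g})
    rw [hdisj, finrank_bot, R.dim, finrank_span_singleton hev0, ← hspan] at h3
    have h4 := h.fix_even (Op_le ha).1
    have hm := h.hm
    obtain ⟨c1, hc1⟩ := hm'
    obtain ⟨c2, hc2⟩ := h4
    omega
  refine ⟨hu, ?_⟩
  rw [map_add, hu] at hav
  exact add_left_cancel hav

/-- `a z - z ∈ W` and it is orthogonal to `z` -/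
theorem delta (h : D2 Q p f m K) (hp2 : p ≠ 2) (hm' : Even (m - 1)) (Y : YD Q p f m K r y e g)
    (R : RD Q m K y e g (Op p K (e + g)) W) {a : V ≃ₗ[F] V} (ha : a ∈ Op p K (e + g)) (z : V) :
    a z - z ∈ W ∧ polar Q z (a z - z) = 0 := by
  obtain ⟨h1, h2⟩ := fix_e h hp2 hm' Y R ha
  have hW : a z - z ∈ W := by
    rw [← perp_perp h W]
    intro x hx
    obtain ⟨w, hw, α, β, rfl⟩ := R.mem x hx
    have h3 : a (w + α • e + β • g) = w + α • e + β • g := by
      rw [map_add, map_add, map_smul, map_smul, R.fixA a ha w hw, h1, h2]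
    rw [sub_eq_add_neg, QuadraticMap.polar_add_left, QuadraticMap.polar_neg_left]
    have h4 := polar_map (h.iso a (Op_le ha).1) z (w + α • e + β • g)
    rw [h3] at h4
    rw [h4]; ring
  refine ⟨hW, ?_⟩
  have h3 := polar_eq Q z (a z - z)
  rw [add_sub_cancel, h.iso a (Op_le ha).1, R.ts _ hW] at h3
  linear_combination -h3

/-- (e) `|A| < q ^ (m - 1)` -/
theorem card_lt (h : D2 Q p f m K) (hp2 : p ≠ 2) (hm' : Even (m - 1)) (Y : YD Q p f m K r y e g)
    (R : RD Q m K y e g (Op p K (e + g)) W) : Nat.card (Op p K (e + g)) < p ^ (f * (m - 1)) := by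
  have hfinE := finite_equiv (F := F) (V := V)
  have hFV : Finite V := Module.finite_of_finite F
  have hm := h.hm
  have hf := h.hf
  obtain ⟨w0, hw0, hw0ne⟩ : ∃ w0 ∈ W, w0 ≠ 0 := by
    by_contra hcon
    push Not at hcon
    have h1 : W = ⊥ := by
      rw [eq_bot_iff]
      intro w hw
      exact (Submodule.mem_bot F).2 (hcon w hw)
    have h2 := R.dim
    rw [h1, finrank_bot] at h2
    omega
  obtain ⟨z, hz⟩ : ∃ z, polar Q w0 z ≠ 0 := by
    by_contra hcon
    push Not at hcon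
    exact hw0ne (h.nd w0 hcon)
  set Wz : Submodule F V := W ⊓ LinearMap.ker (Q.polarBilin z) with hWz
  have hWzm : ∀ w, w ∈ Wz ↔ w ∈ W ∧ polar Q z w = 0 := fun w => Iff.rfl
  have hlt : finrank F Wz < finrank F W := by
    apply Submodule.finrank_lt_finrank_of_lt
    refine lt_of_le_of_ne inf_le_left ?_
    intro h1
    have h2 : w0 ∈ Wz := by rw [h1]; exact hw0
    rw [hWzm, polar_comm] at h2
    exact hz h2.2
  let φ : Op p K (e + g) → Wz := fun a => ⟨(a : V ≃ₗ[F] V) z - z, (hWzm _).2 (delta h hp2 hm' Y R a.2 z)⟩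
  have hφ : Function.Injective φ := by
    intro a b hab
    have h1 : (a : V ≃ₗ[F] V) z - z = (b : V ≃ₗ[F] V) z - z := congrArg Subtype.val hab
    have h2 : (a : V ≃ₗ[F] V) z = (b : V ≃ₗ[F] V) z := sub_left_injective h1
    by_contra hne
    have h3 : ((b⁻¹ * a : Op p K (e + g)) : V ≃ₗ[F] V) ≠ 1 := by
      intro h4
      apply hne
      have : b⁻¹ * a = 1 := Subtype.ext h4
      exact (inv_mul_eq_one.1 this).symm
    have h4 : ((b⁻¹ * a : Op p K (e + g)) : V ≃ₗ[F] V) z = z := by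
      change (b : V ≃ₗ[F] V).symm ((a : V ≃ₗ[F] V) z) = z
      rw [h2, LinearEquiv.symm_apply_apply]
    have h5 := fix_perp h hp2 Y R (b⁻¹ * a).2 h3 h4
    apply hz
    rw [polar_comm]
    exact h5 w0 hw0
  have h1 := Nat.card_le_card_of_injective φ hφ
  rw [Module.natCard_eq_pow_finrank (K := F) (V := Wz), h.hF, ← pow_mul] at h1
  refine lt_of_le_of_lt h1 (Nat.pow_lt_pow_right h.hp.one_lt ?_)
  rw [R.dim] at hlt
  exact Nat.mul_lt_mul_of_pos_left hlt (by omega)

end even

end frame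

end Cfsg.Agent.H308.D2
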