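import Mathlib
import Cfsg.Agent.H308.D2.EvenDim
import Cfsg.Agent.H308.D2.Tau

/-!
# F-D+2, q odd: `|O_p(K_1)| ^ 2 ≤ q ^ (m - 1)`, `m' = m - 1` even (helper308; S3691)
-/

set_option autoImplicit false
set_option linter.unusedSectionVars false

open QuadraticMap Module Cfsg

namespace Cfsg.Agent.H308.D2

open Cfsg.Agent.H386.Rg Cfsg.Agent.H997.Rg

universe u v

section frame

variable {F : Type u} {V : Type v} [Field F] [Finite F] [AddCommGroup V] [Module F V] [FiniteDimensional F V]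
  {Q : QuadraticForm F V} {p f m : ℕ} {K : Subgroup (V ≃ₗ[F] V)} {r : ℕ} {y : V ≃ₗ[F] V} {e g : V} {W : Submodule F V}

/-- the stabiliser of `e` and `g` -/
def Dg (K : Subgroup (V ≃ₗ[F] V)) (e g : V) : Subgroup (V ≃ₗ[F] V) where
  carrier := {k | k ∈ K ∧ k e = e ∧ k g = g}
  one_mem' := ⟨one_mem _, rfl, rfl⟩
  mul_mem' := fun {a b} ha hb => ⟨mul_mem ha.1 hb.1, by
    change a (b e) = e
    rw [hb.2.1, ha.2.1], by
    change a (b g) = g
    rw [hb.2.2, ha.2.2]⟩
  inv_mem' := fun {a} ha => ⟨inv_mem ha.1, by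
    change a.symm e = e
    rw [LinearEquiv.symm_apply_eq]
    exact ha.2.1.symm, by
    change a.symm g = g
    rw [LinearEquiv.symm_apply_eq]
    exact ha.2.2.symm⟩

theorem mem_Dg {k : V ≃ₗ[F] V} : k ∈ Dg K e g ↔ k ∈ K ∧ k e = e ∧ k g = g := Iff.rfl

/-- the complement of the plane -/
def Cp (Q : QuadraticForm F V) (e g : V) : Submodule F V where
  carrier := {x | polar Q x e = 0 ∧ polar Q x g = 0}
  zero_mem' := ⟨by rw [polar_zero_left], by rw [polar_zero_left]⟩
  add_mem' := fun {a b} ha hb => ⟨by rw [QuadraticMap.polar_add_left, ha.1, hb.1, add_zero], by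
    rw [QuadraticMap.polar_add_left, ha.2, hb.2, add_zero]⟩
  smul_mem' := fun c a ha => ⟨by rw [QuadraticMap.polar_smul_left, ha.1, smul_zero], by
    rw [QuadraticMap.polar_smul_left, ha.2, smul_zero]⟩

theorem mem_Cp {x : V} : x ∈ Cp Q e g ↔ polar Q x e = 0 ∧ polar Q x g = 0 := Iff.rfl

theorem Cp_eq : Cp Q e g = perp Q (Submodule.span F ({e, g} : Set V)) := by
  ext x
  rw [mem_Cp, mem_perp]
  constructor
  · rintro ⟨h1, h2⟩ w hw
    obtain ⟨a, b, rfl⟩ := Submodule.mem_span_pair.1 hw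
    rw [QuadraticMap.polar_add_right, QuadraticMap.polar_smul_right, QuadraticMap.polar_smul_right, h1, h2, smul_zero,
      smul_zero, add_zero]
  · intro h1
    exact ⟨h1 e (Submodule.subset_span (by simp)), h1 g (Submodule.subset_span (by simp))⟩

theorem map_Cp (hiso : ∀ k ∈ K, ∀ v, Q (k v) = Q v) {k : V ≃ₗ[F] V} (hk : k ∈ Dg K e g) {x : V} (hx : x ∈ Cp Q e g) :
    k x ∈ Cp Q e g := by
  constructor
  · have := polar_map (hiso k hk.1) x e
    rw [hk.2.1] at this
    rw [this]; exact hx.1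
  · have := polar_map (hiso k hk.1) x g
    rw [hk.2.2] at this
    rw [this]; exact hx.2

theorem sq_le' (h : D2 Q p f m K) (hp2 : p ≠ 2) (hm' : Even (m - 1)) (Y : YD Q p f m K r y e g)
    (R : RD Q m K y e g (Op p K (e + g)) W) : Nat.card (Op p K (e + g)) ^ 2 ≤ p ^ (f * (m - 1)) := by
  classical
  have hfinE := finite_equiv (F := F) (V := V)
  have hFV : Finite V := Module.finite_of_finite F
  have hprime := Fact.mk h.hp
  have hcharP := charP h
  have hm := h.hm
  have hf := h.hf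
  have hv : Q (e + g) ≠ 0 := by rw [Y.hv]; exact one_ne_zero
  obtain ⟨hrp, hr5, hordq⟩ := r_facts h Y.hr Y.hord
  set D := Dg K e g with hD
  have hDs : ∀ k ∈ D, k ∈ stb K (e + g) := fun k hk => ⟨hk.1, by rw [map_add, hk.2.1, hk.2.2]⟩
  have hAD : ∀ a ∈ Op p K (e + g), a ∈ D := fun a ha =>
    ⟨(Op_le ha).1, (fix_e h hp2 hm' Y R ha).1, (fix_e h hp2 hm' Y R ha).2⟩
  set Vc := Cp Q e g with hVc
  have hWVc : W ≤ Vc := fun w hw => ⟨R.pe w hw, R.pg w hw⟩
  have hDV : ∀ k ∈ D, ∀ x ∈ Vc, k x ∈ Vc := fun k hk x hx => map_Cp h.iso hk hx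
  have hDW : ∀ k ∈ D, ∀ x ∈ W, k x ∈ W := fun k hk x hx =>
    R.inv k hk.1 (Op_normalizer (hDs k hk)) (hDs k hk).2 x hx
  have hdimC : finrank F Vc = 2 * (m - 1) := by
    rw [hVc, Cp_eq, finrank_perp h.nd, h.dim, finrank_hyp Y.he Y.hg Y.heg]
    omega
  let _ : DistribMulAction D Vc :=
    { smul := fun k x => ⟨(k : V ≃ₗ[F] V) x, hDV k k.2 x x.2⟩
      one_smul := fun x => Subtype.ext rfl
      mul_smul := fun a b x => Subtype.ext rfl
      smul_zero := fun a => Subtype.ext (map_zero _)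
      smul_add := fun a x z => Subtype.ext (map_add _ _ _) }
  have hsm : ∀ (k : D) (x : Vc), ((k • x : Vc) : V) = (k : V ≃ₗ[F] V) x := fun k x => rfl
  set Wc : Submodule F Vc := W.comap Vc.subtype with hWc
  have hmWc : ∀ x : Vc, x ∈ Wc ↔ (x : V) ∈ W := fun x => Iff.rfl
  have hdimW : finrank F Wc = m - 1 := by
    rw [← R.dim]
    exact (Submodule.comapSubtypeEquivOfLe hWVc).finrank_eq
  -- the kernel
  set A' : Subgroup D := (Op p K (e + g)).subgroupOf D with hA'
  have hmA' : ∀ k : D, k ∈ A' ↔ (k : V ≃ₗ[F] V) ∈ Op p K (e + g) := fun k => Iff.rfl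
  have hee : polar Q e e = 0 := by rw [polar_self', Y.he, mul_zero]
  have hgg : polar Q g g = 0 := by rw [polar_self', Y.hg, mul_zero]
  have hge : polar Q g e = 1 := by rw [polar_comm, Y.heg]
  have hts2 : ∀ a ∈ W, ∀ b ∈ W, polar Q a b = 0 := by
    intro a ha b hb
    have h6 := R.ts _ (W.add_mem ha hb)
    rw [polar_eq, R.ts a ha, R.ts b hb] at h6
    simpa using h6
  have hker : ∀ k : D, k ∈ A' ↔ ∀ x : Vc, k • x - x ∈ Wc := by
    intro k
    constructor
    · intro hk x
      exact (delta h hp2 hm' Y R hk (x : V)).1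
    · intro h1
      refine mem_Op h hp2 Y R (hDs k k.2) ?_
      intro w hw
      change (k : V ≃ₗ[F] V) w = w
      have hkw : (k : V ≃ₗ[F] V) w ∈ W := hDW k k.2 w hw
      rw [← sub_eq_zero]
      apply h.nd
      intro x
      set z : V := x - polar Q x g • e - polar Q x e • g with hz
      have hzV : z ∈ Vc := by
        constructor
        · rw [hz]
          simp only [sub_eq_add_neg, ← neg_smul, QuadraticMap.polar_add_left, QuadraticMap.polar_smul_left, hee, hge, smul_eq_mul]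
          ring
        · rw [hz]
          simp only [sub_eq_add_neg, ← neg_smul, QuadraticMap.polar_add_left, QuadraticMap.polar_smul_left, hgg, Y.heg, smul_eq_mul]
          ring
      have hx : x = z + polar Q x g • e + polar Q x e • g := by rw [hz]; abel
      have hd : (k : V ≃ₗ[F] V) w - w ∈ W := W.sub_mem hkw hw
      have hzW : (k : V ≃ₗ[F] V) z - z ∈ W := h1 ⟨z, hzV⟩
      rw [hx, QuadraticMap.polar_add_right, QuadraticMap.polar_add_right, QuadraticMap.polar_smul_right,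
        QuadraticMap.polar_smul_right, R.pe _ hd, R.pg _ hd, smul_zero, smul_zero, add_zero, add_zero]
      have h3' := hts2 _ hkw _ hzW
      have h8 := polar_map (h.iso k k.2.1) w z
      rw [sub_eq_add_neg, QuadraticMap.polar_add_right, QuadraticMap.polar_neg_right, h8] at h3'
      rw [sub_eq_add_neg, QuadraticMap.polar_add_left, QuadraticMap.polar_neg_left]
      linear_combination -h3'
  have hcardker : Nat.card A' = Nat.card (Op p K (e + g)) := by
    let φ : Op p K (e + g) ≃ A' :=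
      { toFun := fun a => ⟨⟨a, hAD a a.2⟩, a.2⟩
        invFun := fun k => ⟨((k : D) : V ≃ₗ[F] V), k.2⟩
        left_inv := fun a => rfl
        right_inv := fun k => rfl }
    exact (Nat.card_congr φ).symm
  have hyD : y ∈ D := ⟨Y.hyK, Y.hye, Y.hyg⟩
  have hmemW : ∀ x : Vc, (x : V) ∈ perp Q W → (x : V) ∈ W := by
    intro x h2
    obtain ⟨w, hw, α, β, hxw⟩ := R.mem (x : V) h2
    have h3 := x.2.1
    have h4 := x.2.2
    rw [hxw] at h3 h4
    simp only [QuadraticMap.polar_add_left, QuadraticMap.polar_smul_left, hee, hgg, hge, Y.heg, R.pe w hw, R.pg w hw,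
      smul_eq_mul, mul_zero, mul_one, add_zero, zero_add] at h3 h4
    rw [hxw, h3, h4, zero_smul, zero_smul, add_zero, add_zero]
    exact hw
  rw [← hcardker]
  refine sq_le_abs (F := F) (V := Vc) (D := D) (f := f) (l := m - 1) (r := r) h.hF (Nat.mul_pos (by omega) (by omega)) Wc hdimC hdimW
    (fun k x hx => hDW k k.2 x hx) A' hker ?_ ?_ ?_ ?_ Y.hr Y.hord (by omega) (y := (⟨y, hyD⟩ : D))
    (by rw [Subgroup.orderOf_mk, Y.hyr]) (Q.polarBilin.domRestrict₁₂ Vc Vc) ?_ ?_ ?_
  · have h1 := Op_pgroup (p := p) (K := K) (v := e + g)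
    intro k
    obtain ⟨j, hj⟩ := h1 ⟨((k : D) : V ≃ₗ[F] V), k.2⟩
    have h2 : ((k : D) : V ≃ₗ[F] V) ^ p ^ j = 1 := congrArg Subtype.val hj
    refine ⟨j, Subtype.ext (Subtype.ext ?_)⟩
    rw [Subgroup.coe_pow, Subgroup.coe_pow, h2]
    rfl
  · intro a ha w hw
    apply Subtype.ext
    exact R.fixA _ ha w hw
  · intro a ha ha1 x hx
    have h1 : ((a : D) : V ≃ₗ[F] V) ≠ 1 := fun h2 => ha1 (Subtype.ext h2)
    exact hmemW x (fix_perp h hp2 Y R ha h1 (z := (x : V)) (congrArg Subtype.val hx))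
  · rw [hcardker]; exact card_lt h hp2 hm' Y R
  · intro k u w
    exact polar_map (h.iso k k.2.1) _ _
  · intro u hu
    refine hmemW u fun w hw => ?_
    exact hu ⟨w, hWVc hw⟩ hw
  · intro a ha u w
    have hA := (hmA' a).1 ha
    have h1 := (delta h hp2 hm' Y R hA (u : V)).1
    have h2 := (delta h hp2 hm' Y R hA (w : V)).1
    have h3 := polar_map (h.iso a a.2.1) (u : V) (w : V)
    have h5 := hts2 _ h1 _ h2
    change polar Q (u : V) (((a : D) : V ≃ₗ[F] V) (w : V) - w) = -polar Q (w : V) (((a : D) : V ≃ₗ[F] V) (u : V) - u)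
    simp only [sub_eq_add_neg, QuadraticMap.polar_add_left, QuadraticMap.polar_add_right, QuadraticMap.polar_neg_left,
      QuadraticMap.polar_neg_right] at h5 ⊢
    rw [h3] at h5
    rw [polar_comm Q (w : V) (((a : D) : V ≃ₗ[F] V) (u : V)), polar_comm Q (w : V) (u : V)]
    linear_combination -h5

end frame

end Cfsg.Agent.H308.D2
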