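import Mathlib
import Cfsg.Agent.H308.D2.EvenSit
import Cfsg.Agent.H50.D2.Quot
import Cfsg.Agent.H50.D2.Stb
import Cfsg.Agent.H50.D2.Num
import Cfsg.Agent.H454.Rg.ComAsm
import Cfsg.Agent.Lib.Zsigmondy

/-!
# F-D+2, q odd: assembly (helper308; S3691)
-/

set_option autoImplicit false
set_option linter.unusedSectionVars false

open QuadraticMap Module Cfsg

namespace Cfsg.Agent.H308.D2

open Cfsg.Agent.H386.Rg Cfsg.Agent.H997.Rg

universe u v

variable {F : Type u} {V : Type v} [Field F] [Finite F] [AddCommGroup V] [Module F V] [FiniteDimensional F V]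
  {Q : QuadraticForm F V} {p f m : ℕ} {K : Subgroup (V ≃ₗ[F] V)}

theorem exists_YD (h : D2 Q p f m K) (hp2 : p ≠ 2) : ∃ (r : ℕ) (y : V ≃ₗ[F] V) (e g : V), YD Q p f m K r y e g := by
  have hfinE := finite_equiv (F := F) (V := V)
  have hm := h.hm
  have hf := h.hf
  have h4 : 4 ≤ f * (m - 1) := by
    have : 1 * 4 ≤ f * (m - 1) := Nat.mul_le_mul hf (by omega)
    omega
  obtain ⟨r, hr, hord⟩ := Cfsg.Agent.Lib.Zsigmondy.exists_prime_orderOf (a := p) (n := f * (m - 1)) h.hp.two_le (by omega)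
    (by omega) (by
      rintro ⟨h1, -⟩
      exact hp2 h1)
  have := Fact.mk hr
  obtain ⟨⟨y, hyK⟩, hy⟩ := exists_prime_orderOf_dvd_card' (G := K) r (h.rdvd r hr (Or.inr hord))
  rw [Subgroup.orderOf_mk] at hy
  obtain ⟨e, g, he, hg, heg, hfix⟩ := h.fixplane hr hord hyK hy
  exact ⟨r, y, e, g, hr, hord, hyK, hy, he, hg, heg, hfix⟩

/-- **11.1** (with the odd order theorem as a hypothesis) -/
theorem odd_case_of (hFT : ∀ (G : Type v) [Group G] [Finite G], Odd (Nat.card G) → Group.IsSolvable G)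
    (h : D2 Q p f m K) (hp2 : p ≠ 2) : False := by
  have hfinE := finite_equiv (F := F) (V := V)
  obtain ⟨r, y, e, g, Y⟩ := exists_YD h hp2
  have hv : Q (e + g) ≠ 0 := by rw [Y.hv]; exact one_ne_zero
  have hodd : Odd (Nat.card (stb K (e + g))) := h.odd_stb hp2 hv
  have hsol : Group.IsSolvable (stb K (e + g)) := hFT _ hodd
  have hdvd := Cfsg.Agent.H50.D2.card_stb_dvd h hv
  have hge := Cfsg.Agent.H50.D2.card_stb_ge h hv
  rw [if_neg hp2] at hge
  by_cases hbot : pCore p (stb K (e + g)) = ⊥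
  · obtain ⟨c, hc, hk⟩ := case_bot h hp2 Y hbot hsol
    exact Cfsg.Agent.H50.D2.num_bot h.hp hp2 h.hf h.hm hodd hdvd hc hk hge
  rcases Nat.even_or_odd (m - 1) with hm' | hm'
  · obtain ⟨W, R⟩ := exists_rad h hp2 Y (Op p K (e + g)) Op_le Op_pgroup (Op_ne_bot hbot) (Op_normalizer Y.hys)
    obtain ⟨c, hc, hx⟩ := Cfsg.Agent.H50.D2.quot_dvd h hp2 Y R hsol
    have ha := sq_le' h hp2 hm' Y R
    have hk : Nat.card (stb K (e + g)) =
        Nat.card (Op p K (e + g)) * Nat.card (stb K (e + g) ⧸ pCore p (stb K (e + g))) := by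
      rw [Op_card, mul_comm]
      exact Subgroup.card_eq_card_quotient_mul_card_subgroup _
    exact Cfsg.Agent.H50.D2.num_even h.hp hp2 h.hf h.hm hm' hodd hdvd hk ha hc hx hge
  · refine Cfsg.Agent.H454.Rg.common_of hFT h hm' Y.hr Y.hord Y.hyr hv Y.hys ?_ (Op p K (e + g)) Op_le
      (fun k hk a ha => Op_norm hk ha) (case_odd h hp2 Y hm' hbot hdvd)
    intro x hx h2
    by_contra _
    have h3 := h.odd_stb hp2 hx
    exact (Nat.not_even_iff_odd.2 h3) (even_iff_two_dvd.2 h2)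

end Cfsg.Agent.H308.D2
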