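import Cfsg.Agent.H308.D2.Asm
import Cfsg.Agent.S0205

/-!
# S3691, F-D+2, 11.1 (q odd), final form (helper308)
-/

set_option autoImplicit false

namespace Cfsg.Agent.H386.Rg

open QuadraticMap Module

universe u v

variable {F : Type u} {V : Type v} [Field F] [Finite F] [AddCommGroup V] [Module F V] [FiniteDimensional F V]
  {Q : QuadraticForm F V} {p f m : ℕ} {K : Subgroup (V ≃ₗ[F] V)}

/-- **11.1** (exact statement of tools/plans/S3691_d2_stubs.lean.txt) -/
theorem D2.odd_case (h : D2 Q p f m K) (hp2 : p ≠ 2) : False :=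
  Cfsg.Agent.H308.D2.odd_case_of (fun _ _ _ hG => Cfsg.Agent.S0205.result hG) h hp2

end Cfsg.Agent.H386.Rg
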